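import Cfsg.Agent.H688.RG.Lin5

/-!
# S3691, 11.2 (b): numbers (helper688)
-/

set_option autoImplicit false

namespace Cfsg.Agent.H688.RG

open Cfsg.Agent.H728.DghpNum

/-- primes of `Φ₅(a)` -/
theorem ppd_five {a l : ℕ} (ha : 2 ≤ a) (hl : l.Prime) (h5 : l ≠ 5) (hd : l ∣ a ^ 4 + a ^ 3 + a ^ 2 + a + 1) :
    Ppd a 5 l := by
  have h1 : (a - 1) * (a ^ 4 + a ^ 3 + a ^ 2 + a + 1) = a ^ 5 - 1 := by
    obtain ⟨b, rfl⟩ : ∃ b, a = b + 1 := ⟨a - 1, by omega⟩
    rw [Nat.add_sub_cancel]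
    symm
    rw [Nat.sub_eq_iff_eq_add (Nat.one_le_pow _ _ (by omega))]
    ring
  have h2 : l ∣ a ^ 5 - 1 := by rw [← h1]; exact hd.mul_left _
  have hnd : ¬ l ∣ a := by
    intro h
    have h3 : l ∣ a ^ 4 + a ^ 3 + a ^ 2 + a := by
      have : a ^ 4 + a ^ 3 + a ^ 2 + a = a * (a ^ 3 + a ^ 2 + a + 1) := by ring
      rw [this]
      exact h.mul_right _
    have h4 := (Nat.dvd_add_right h3).1 hd
    exact hl.one_lt.ne' (Nat.dvd_one.1 h4)
  refine ⟨hl, ?_, hnd⟩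
  have := Fact.mk hl
  rw [Lib.Zsigmondy.dvd_pow_sub_one_iff (by omega)] at h2
  rcases (Nat.dvd_prime Nat.prime_five).1 h2 with h | h
  · exfalso
    rw [orderOf_eq_one_iff] at h
    have h3 : ((a ^ 4 + a ^ 3 + a ^ 2 + a + 1 : ℕ) : ZMod l) = 0 := (ZMod.natCast_eq_zero_iff _ _).2 hd
    push_cast at h3
    rw [h] at h3
    have h4 : ((5 : ℕ) : ZMod l) = 0 := by
      push_cast
      linear_combination h3
    have h6 := (ZMod.natCast_eq_zero_iff _ _).1 h4
    exact h5 ((Nat.prime_dvd_prime_iff_eq hl Nat.prime_five).1 h6)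
  · exact h

theorem not_25 (a : ℕ) : ¬ 25 ∣ a ^ 4 + a ^ 3 + a ^ 2 + a + 1 := by
  intro h
  have h1 : ((a ^ 4 + a ^ 3 + a ^ 2 + a + 1 : ℕ) : ZMod 25) = 0 := (ZMod.natCast_eq_zero_iff _ _).2 h
  push_cast at h1
  revert h1
  generalize (a : ZMod 25) = b
  revert b
  decide

theorem gcd_five {a k : ℕ} (ha : 2 ≤ a) (hk : ∀ l, Ppd a 5 l → ¬ l ∣ k) :
    Nat.gcd (a ^ 4 + a ^ 3 + a ^ 2 + a + 1) k ∣ 5 := by
  set A := a ^ 4 + a ^ 3 + a ^ 2 + a + 1 with hA
  set g := Nat.gcd A k with hg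
  have hg1 : g ∣ A := Nat.gcd_dvd_left _ _
  have hg2 : g ∣ k := Nat.gcd_dvd_right _ _
  have key : ∀ l, l.Prime → l ∣ g → l = 5 := by
    intro l hl hd
    by_contra h5
    exact hk l (ppd_five ha hl h5 (hd.trans hg1)) (hd.trans hg2)
  by_cases h1 : g = 1
  · rw [h1]; exact one_dvd _
  obtain ⟨l, hl, hlg⟩ := Nat.exists_prime_and_dvd h1
  obtain rfl := key l hl hlg
  obtain ⟨e, he⟩ := hlg
  by_cases h2 : e = 1
  · rw [he, h2]
  obtain ⟨l, hl, hle⟩ := Nat.exists_prime_and_dvd h2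
  obtain rfl := key l hl (by rw [he]; exact hle.mul_left _)
  obtain ⟨e', rfl⟩ := hle
  exfalso
  apply not_25 a
  rw [← hA]
  refine (Dvd.intro e' ?_ : 25 ∣ g).trans hg1
  rw [he]; ring

theorem pow_ge {f : ℕ} (hf : 4 ≤ f) : 41 * f ≤ 2 ^ (2 * f) := by
  induction f, hf using Nat.le_induction with
  | base => norm_num
  | succ n hn ih =>
    rw [show 2 * (n + 1) = 2 * n + 2 by ring, pow_add]
    omega

/-- **the subfield case** -/
theorem num {f₀ k c : ℕ} (hf : 2 ≤ f₀)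
    (hN : k * c = (2 ^ (2 * f₀)) ^ 8 * (((2 ^ (2 * f₀)) ^ 5 - 1) * ((2 ^ (2 * f₀)) ^ 4 - 1)))
    (hc : c ≤ 4 * (2 * f₀) * (2 ^ (2 * f₀) + 1)) (hk : ∀ l, Ppd (2 ^ f₀) 5 l → ¬ l ∣ k) : False := by
  set a := 2 ^ f₀ with ha
  have hq : 2 ^ (2 * f₀) = a ^ 2 := by rw [ha, ← pow_mul, mul_comm]
  have ha4 : 4 ≤ a := by
    rw [ha]
    exact (by norm_num : 4 = 2 ^ 2).le.trans (Nat.pow_le_pow_right (by norm_num) hf)
  rw [hq] at hN hc
  set A := a ^ 4 + a ^ 3 + a ^ 2 + a + 1 with hA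
  have hAN : A ∣ k * c := by
    rw [hN]
    refine Dvd.dvd.mul_left (Dvd.dvd.mul_right ?_ _) _
    have h1 : (a - 1) * A = a ^ 5 - 1 := by
      obtain ⟨b, hb⟩ : ∃ b, a = b + 1 := ⟨a - 1, by omega⟩
      rw [hA, hb, Nat.add_sub_cancel]
      symm
      rw [Nat.sub_eq_iff_eq_add (Nat.one_le_pow _ _ (by omega))]
      ring
    have h2 : a ^ 5 - 1 ∣ (a ^ 2) ^ 5 - 1 := by
      rw [show (a ^ 2) ^ 5 = (a ^ 5) ^ 2 by ring]
      exact Nat.sub_one_dvd_pow_sub_one _ _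
    exact (Dvd.intro_left _ h1).trans h2
  have hg := gcd_five (a := a) (k := k) (by omega) hk
  rw [← hA] at hg
  set g := Nat.gcd A k with hgd
  have hA0 : 0 < A := by rw [hA]; positivity
  have hg0 : 0 < g := Nat.gcd_pos_of_pos_left _ hA0
  have hdiv : A / g ∣ c := by
    have h1 : Nat.Coprime (A / g) (k / g) := Nat.coprime_div_gcd_div_gcd hg0
    have h2 : A / g ∣ (k / g) * c := by
      have h3 : g * (A / g) ∣ g * ((k / g) * c) := by
        rw [Nat.mul_div_cancel' (Nat.gcd_dvd_left _ _), ← mul_assoc, Nat.mul_div_cancel' (Nat.gcd_dvd_right _ _)]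
        exact hAN
      exact Nat.dvd_of_mul_dvd_mul_left hg0 h3
    exact h1.dvd_of_dvd_mul_left h2
  have hc0 : 0 < c := by
    rcases Nat.eq_zero_or_pos c with h | h
    · exfalso
      rw [h, mul_zero] at hN
      have h1 : 0 < (a ^ 2) ^ 5 - 1 := by
        have : 1 < (a ^ 2) ^ 5 := Nat.one_lt_pow (by norm_num) (Nat.one_lt_pow (by norm_num) (by omega))
        omega
      have h2 : 0 < (a ^ 2) ^ 4 - 1 := by
        have : 1 < (a ^ 2) ^ 4 := Nat.one_lt_pow (by norm_num) (Nat.one_lt_pow (by norm_num) (by omega))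
        omega
      have h3 : 0 < (a ^ 2) ^ 8 * (((a ^ 2) ^ 5 - 1) * ((a ^ 2) ^ 4 - 1)) := by positivity
      omega
    · exact h
  have hle : A / g ≤ c := Nat.le_of_dvd hc0 hdiv
  have hg5 : g = 1 ∨ g = 5 := (Nat.dvd_prime Nat.prime_five).1 hg
  have hAg : A = g * (A / g) := (Nat.mul_div_cancel' (Nat.gcd_dvd_left _ _)).symm
  rcases Nat.lt_or_ge f₀ 4 with h4 | h4
  · have hcase : f₀ = 2 ∨ f₀ = 3 := by omega
    have hg1 : g = 1 := by
      rcases hg5 with h | h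
      · exact h
      · exfalso
        have h5 : 5 ∣ A := by rw [← h]; exact Nat.gcd_dvd_left _ _
        rcases hcase with h6 | h6
        · rw [hA, ha, h6] at h5
          revert h5
          decide
        · rw [hA, ha, h6] at h5
          revert h5
          decide
    rw [hg1, one_mul, Nat.div_one] at hAg
    rw [hg1, Nat.div_one] at hle
    have h7 := hle.trans hc
    rcases hcase with h6 | h6
    · rw [hA, ha, h6] at h7
      norm_num at h7
    · rw [hA, ha, h6] at h7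
      norm_num at h7
  · have h5 : A ≤ 5 * c := by
      rcases hg5 with h | h
      · rw [h, Nat.div_one] at hle; omega
      · rw [h] at hAg hle; omega
    have h6 := pow_ge h4
    rw [hq] at h6
    have h7 : 256 ≤ a ^ 2 := by
      have : 16 ≤ a := by
        rw [ha]
        exact (by norm_num : 16 = 2 ^ 4).le.trans (Nat.pow_le_pow_right (by norm_num) h4)
      nlinarith
    have h8 : a ^ 4 < A := by rw [hA]; omega
    have h9 : a ^ 4 = a ^ 2 * a ^ 2 := by ring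
    nlinarith

end Cfsg.Agent.H688.RG
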