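import Cfsg.Agent.H688.RG.Rat
import Cfsg.Agent.H688.RG.Num

/-!
# S3691, 11.2 (b): the irreducible case (helper688)
-/

set_option autoImplicit false
set_option linter.unusedSectionVars false

namespace Cfsg.Agent.H688.RG

open Cfsg Cfsg.Geo Module Matrix QuadraticMap
open Cfsg.Agent.H728.DghpNum
open Cfsg.Agent.H851.Rl
open Cfsg.Agent.H383.Cov.Ten (S5848Stmt)
open Cfsg.Agent.H926 (jmap form0 form0_apply jmap_add jmap_smul jmap_injective ndOn_form0 exists_jmap_coord)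
open Cfsg.Agent.H377 (HasSign)
open Cfsg.Agent.H377.Fpf
open Cfsg.Agent.LieClassical.OrthCore (Nondeg)
open scoped MatrixGroups

/-- the situation in matrices -/
structure Dat {F : Type} [Field F] [Fintype F] (f : ℕ) (Q : (Fin 10 → F) → F) (K : Subgroup (GL (Fin 10) F)) : Prop where
  hf : 3 ≤ f
  hF : Fintype.card F = 2 ^ f
  hQ : IsNondegenerateQuadraticForm Q
  plus : IsPlusTypeOn Q ⊤
  lt : K < omegaGL Q
  card : ∃ c, Nat.card K * c = (2 ^ f) ^ 8 * (((2 ^ f) ^ 5 - 1) * ((2 ^ f) ^ 4 - 1)) ∧ c ≤ 4 * f * (2 ^ f + 1)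
  r5 : ∀ r, Two f 5 r → r ∣ Nat.card K
  r4 : ∀ r, Two f 4 r → r ∣ Nat.card K

variable {F : Type} [Field F] [Fintype F] {f : ℕ} {Q : (Fin 10 → F) → F} {K : Subgroup (GL (Fin 10) F)}

theorem two_eq_zero (hf : 1 ≤ f) (hF : Fintype.card F = 2 ^ f) : (2 : F) = 0 := by
  have h1 : ((2 ^ f : ℕ) : F) = 0 := by
    rw [← hF]
    exact FiniteField.cast_card_eq_zero F
  push_cast at h1
  exact pow_eq_zero_iff (by omega) |>.1 h1

theorem Dat.iso (h : Dat f Q K) {x : GL (Fin 10) F} (hx : x ∈ omegaGL Q) (v : Fin 10 → F) :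
    Q ((x : Matrix (Fin 10) (Fin 10) F) *ᵥ v) = Q v := by
  have h1 : x ∈ isometryGroup F Q := H925.omegaGL_le_iso Q hx
  exact H925.mem_iso_iff.1 h1 v

theorem Dat.irr (hR : S5848Stmt) (h : Dat f Q K) (hirr : ActsIrreducibly (matrixSet K)) : False := by
  classical
  have h2 := two_eq_zero (by have := h.hf; omega) h.hF
  have hF := h.hF
  have hf := h.hf
  have hq8 : 8 ≤ Fintype.card F := by
    rw [hF]
    exact (by norm_num : 8 = 2 ^ 3).le.trans (Nat.pow_le_pow_right (by norm_num) hf)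
  have hodd : ¬ Odd (Fintype.card F) := by
    rw [hF, Nat.not_odd_iff_even]
    exact (Nat.even_pow.2 ⟨even_two, by omega⟩)
  have hnp : ∀ p : ℕ, p.Prime → Fintype.card F = p → False := by
    rintro p hp rfl
    rw [hF] at hp
    exact Nat.Prime.not_prime_pow (by omega) hp
  have h4 : Fintype.card F % 4 ≠ 1 := by
    intro h4
    apply hodd
    exact Nat.odd_iff.2 (by omega)
  obtain ⟨r5, h5⟩ := exists_two (f := f) (k := 5) (by omega) (by omega)
  have hP5 : Ppd (Fintype.card F) 5 r5 := hF ▸ h5.ppd (by omega) (by norm_num)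
  have hg5 := h5.gt (by omega) (by norm_num)
  obtain ⟨M, hM, hKM⟩ := H905.exists_isMaximalIn_of_lt h.lt
  have hMirr : ActsIrreducibly (matrixSet M) := by
    intro W hW
    refine hirr W ?_
    rintro _ ⟨g, hg, rfl⟩
    exact hW _ ⟨g, hKM hg, rfl⟩
  have hM5 : r5 ∣ Nat.card M := (h.r5 r5 h5).trans (Subgroup.card_dvd_of_le hKM)
  rcases H925.plus10_irreducible (Fintype.card_fin 10) h.hQ h.plus hM.1.le hMirr with
    ⟨⟨p, hp, hcp, hp4⟩, -⟩ | ⟨-, D, hD, hle⟩ | ⟨h1, -⟩ | ⟨ho, -⟩ | ⟨F₀, r, P, ζ, hr, hc, hζ, hR', hle⟩ | hres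
  · exact hnp p hp hcp
  · have h3 : r5 ∣ Nat.card (decompositionStabilizer D) := hM5.trans (Subgroup.card_dvd_of_le hle)
    rcases H251.GeoCard.decomp hD.decomp.decomp h5.prime (by rw [Nat.card_eq_fintype_card]; exact hP5.ndvd) h3 with h3 | ⟨i, hi1, hi2, h3⟩
    · omega
    · rw [Nat.card_eq_fintype_card, hP5.dvd_iff] at h3
      have := Nat.le_of_dvd (by omega) h3
      omega
  · exact h4 h1
  · exact hodd ho
  · obtain ⟨f₀, h0, hfr, h0c⟩ := card_sub (by omega) hF F₀ hc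
    subst hfr
    obtain ⟨i, hi1, hi2, hi3⟩ := sub_dvd h0 hr.one_lt.le h0c hF h5 (by norm_num) (hM5.trans (Subgroup.card_dvd_of_le hle))
    have h6 := Nat.le_of_dvd (by omega) hi3
    rw [Fintype.card_fin] at hi2
    have hr2 : r = 2 := by
      have := hr.two_le
      omega
    subst hr2
    obtain ⟨c, hc1, hc2⟩ := h.card
    rw [mul_comm f₀ 2] at hc1 hc2
    refine num (f₀ := f₀) (k := Nat.card K) (c := c) (by omega) hc1 hc2 fun l hl hd => ?_
    -- an element of order `l`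
    have hd2 : 5 < l := hl.lt
    obtain ⟨x, hx, hxl⟩ := elt_of_dvd hl.prime hd
    obtain ⟨y, hy, hyl⟩ := elt_of_dvd h5.prime (h.r5 r5 h5)
    obtain ⟨x₀, hx₀⟩ := exists_isoQ h2 h.hQ hζ hR' ⟨0⟩ (hle (hKM hx)) (h.iso (h.lt.le hx)) hl.prime (by omega) hxl
    obtain ⟨y₀, hy₀⟩ := exists_isoQ h2 h.hQ hζ hR' ⟨0⟩ (hle (hKM hy)) (h.iso (h.lt.le hy)) h5.prime (by omega) hyl
    refine no_both ?_ hx₀ hy₀ (h0c ▸ hl) ?_
    · rw [Module.finrank_fintype_fun_eq_card, Fintype.card_fin]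
    · rw [h0c]
      exact ppd_of Nat.prime_two h0 rfl h5.prime (by rw [h5.ord]; ring) (by norm_num)
  · obtain ⟨P, -, h7⟩ := hR Q h.hQ h.plus M hM hres
    rcases h7 with ⟨-, h8, -⟩ | ⟨-, h8, -⟩ | ⟨-, h8⟩ | ⟨-, h8⟩
    · exact hnp _ h8 rfl
    · exact hnp _ h8 rfl
    · omega
    · exact h4 h8

end Cfsg.Agent.H688.RG
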