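import Cfsg.Statements.S5794
import Cfsg.Agent.S5793
import Cfsg.Agent.H851.Rl.List10

/-!
# S3691, 11.2 (b): subgroups of `GL₅(q)`, `q` even, containing elements of orders `r₅` and `r₄` (helper688)
-/

set_option autoImplicit false
set_option linter.unusedSectionVars false

namespace Cfsg.Agent.H688.RG

open Cfsg Cfsg.Geo Module Matrix
open Cfsg.Agent.H728.DghpNum
open Cfsg.Agent.H851.Rl
open scoped MatrixGroups

/-- the text of S5794 -/
def S5794Stmt : Prop :=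
  ∀ {F : Type} [Field F] [Fintype F] (H : Subgroup (Matrix.GeneralLinearGroup (Fin 5) F))
    (_hH : Cfsg.Geo.IsMaximalIn (Cfsg.Geo.specialLinear (Fin 5) F) H) (_hS : Cfsg.Geo.InLinearResidualClass H),
    ∃ (P : Subgroup (Matrix.GeneralLinearGroup (Fin 5) F)) (p : ℕ), Cfsg.Geo.IsResidualCore H P ∧ p.Prime ∧ Fintype.card F = p ∧
    ((Nonempty ((P ⧸ (Cfsg.Geo.scalars (Fin 5) F).subgroupOf P) ≃* Matrix.ProjectiveSpecialLinearGroup (Fin 2) (ZMod 11)) ∧ p ≠ 3 ∧ (p % 11 = 1 ∨ p % 11 = 3 ∨ p % 11 = 4 ∨ p % 11 = 5 ∨ p % 11 = 9)) ∨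
     (Cfsg.Spor.IsoM11 (P ⧸ (Cfsg.Geo.scalars (Fin 5) F).subgroupOf P) ∧ p = 3) ∨
     ((∃ (K : Type) (_ : Field K) (_ : Fintype K), Fintype.card K = 4 ∧ Nonempty ((P ⧸ (Cfsg.Geo.scalars (Fin 5) F).subgroupOf P) ≃* Cfsg.PSU 4 K 2)) ∧ p % 6 = 1))

/-- primitive primes over the prime field `𝔽₂` -/
structure Two (f k r : ℕ) : Prop where
  prime : r.Prime
  ord : orderOf ((2 : ℕ) : ZMod r) = f * k

theorem Two.ppd {f k r : ℕ} (h : Two f k r) (hf : 1 ≤ f) (hk : 1 ≤ k) : Ppd (2 ^ f) k r :=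
  ppd_of Nat.prime_two hf rfl h.prime h.ord hk

theorem Two.ppd' {f k r : ℕ} (h : Two f k r) (hf : 1 ≤ f) (hk : 1 ≤ k) : Ppd 2 (f * k) r := by
  have := ppd_of (f := 1) (k := f * k) Nat.prime_two le_rfl rfl h.prime (by rw [h.ord, one_mul]) (Nat.mul_pos hf hk)
  rwa [pow_one] at this

theorem Two.gt {f k r : ℕ} (h : Two f k r) (hf : 1 ≤ f) (hk : 1 ≤ k) : f * k < r := (h.ppd' hf hk).lt

theorem exists_two {f k : ℕ} (h3 : 3 ≤ f * k) (h6 : f * k ≠ 6) : ∃ r, Two f k r := by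
  obtain ⟨r, hr⟩ := exists_ppd (q := 2) (e := f * k) le_rfl h3 (by rintro ⟨-, h⟩; exact h6 h)
  exact ⟨r, hr.prime, hr.ord⟩

/-- an even field order is a power of two -/
theorem card_two {F : Type*} [Field F] [Fintype F] (h2 : ¬ Odd (Fintype.card F)) : ∃ f, 1 ≤ f ∧ Fintype.card F = 2 ^ f := by
  obtain ⟨p, k, hp, hk, hpk⟩ := Fintype.isPrimePow_card_of_field (α := F)
  have hp' := Nat.prime_iff.2 hp
  have h1 : 2 ∣ p ^ k := by
    rw [hpk]
    exact even_iff_two_dvd.1 (Nat.not_odd_iff_even.1 h2)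
  have e2 := (Nat.prime_dvd_prime_iff_eq Nat.prime_two hp').1 (Nat.prime_two.dvd_of_dvd_pow h1)
  subst e2
  exact ⟨k, hk, hpk.symm⟩

/-- the order of a subfield of a field of order `2 ^ f` -/
theorem card_sub {F : Type*} [Field F] [Fintype F] {f r : ℕ} (hf : 1 ≤ f) (hF : Fintype.card F = 2 ^ f) (F₀ : Subfield F)
    (hc : Fintype.card F = Nat.card F₀ ^ r) : ∃ f₀, 1 ≤ f₀ ∧ f = f₀ * r ∧ Nat.card F₀ = 2 ^ f₀ := by
  have hr : r ≠ 0 := by
    rintro rfl
    rw [hF, pow_zero] at hc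
    have := Nat.one_lt_two_pow (n := f) (by omega)
    omega
  have h1 : Nat.card F₀ ∣ 2 ^ f := by
    rw [← hF, hc]
    exact dvd_pow_self _ hr
  obtain ⟨f₀, -, h2⟩ := (Nat.dvd_prime_pow Nat.prime_two).1 h1
  have h3 : 2 ≤ Nat.card F₀ := Finite.one_lt_card
  refine ⟨f₀, ?_, ?_, h2⟩
  · rcases Nat.eq_zero_or_pos f₀ with h | h
    · subst h
      rw [h2] at h3
      omega
    · exact h
  · rw [hF, h2, ← pow_mul] at hc
    exact Nat.pow_right_injective le_rfl hc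

theorem sub_dvd {ι : Type} [Fintype ι] [DecidableEq ι] {F : Type} [Field F] [Fintype F] {f₀ r k u : ℕ} (hf₀ : 1 ≤ f₀)
    (hr : 1 ≤ r) {F₀ : Subfield F} (h0 : Nat.card F₀ = 2 ^ f₀) (hF : Fintype.card F = 2 ^ (f₀ * r)) {P : GL ι F}
    (hu : Two (f₀ * r) k u) (hk : 2 ≤ k) (hd : u ∣ Nat.card (subfieldSubgroup F₀ P)) :
    ∃ i, 1 ≤ i ∧ i ≤ Fintype.card ι ∧ r * k ∣ i := by
  have hP : Ppd (Fintype.card F) k u := hF ▸ hu.ppd (Nat.mul_pos hf₀ hr) (by omega)
  rcases H251.GeoCard.subfield hu.prime (by rw [Nat.card_eq_fintype_card]; exact hP.ndvd) hd with h | ⟨i, h1, h2, h3⟩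
  · exfalso
    rw [Nat.card_eq_fintype_card] at h
    have := Nat.le_of_dvd one_pos ((hP.dvd_iff 1).1 (by rwa [pow_one]))
    omega
  · refine ⟨i, h1, h2, ?_⟩
    have h4 := hu.ppd' (Nat.mul_pos hf₀ hr) (by omega)
    rw [h0, ← pow_mul, h4.dvd_iff, mul_assoc] at h3
    exact Nat.dvd_of_mul_dvd_mul_left hf₀ h3

/-- **the linear list** -/
theorem lin5 (hR : S5794Stmt) {F : Type} [Field F] [Fintype F] {f : ℕ} (hf : 3 ≤ f) (hF : Fintype.card F = 2 ^ f)
    {K : Subgroup (GL (Fin 5) F)} {r5 r4 : ℕ} (h5 : Two f 5 r5) (h4 : Two f 4 r4) (hK5 : r5 ∣ Nat.card K)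
    (hK4 : r4 ∣ Nat.card K) : specialLinear (Fin 5) F ≤ K := by
  classical
  have hq8 : 8 ≤ Fintype.card F := by
    rw [hF]
    exact (by norm_num : 8 = 2 ^ 3).le.trans (Nat.pow_le_pow_right (by norm_num) hf)
  have hodd : ¬ Odd (Fintype.card F) := by
    rw [hF, Nat.not_odd_iff_even]
    exact (Nat.even_pow.2 ⟨even_two, by omega⟩)
  have hnp : ∀ p : ℕ, p.Prime → Fintype.card F = p → False := by
    rintro p hp rfl
    rw [hF] at hp
    exact Nat.Prime.not_prime_pow (by omega) hp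
  have hP5 : Ppd (Fintype.card F) 5 r5 := hF ▸ h5.ppd (by omega) (by norm_num)
  have hP4 : Ppd (Fintype.card F) 4 r4 := hF ▸ h4.ppd (by omega) (by norm_num)
  have hg5 := h5.gt (by omega) (by norm_num)
  have hg4 := h4.gt (by omega) (by norm_num)
  -- the special part
  have hdet : ∀ {r k : ℕ}, Ppd (Fintype.card F) k r → 2 ≤ k → r ∣ Nat.card K →
      ∃ x ∈ K ⊓ specialLinear (Fin 5) F, orderOf x = r := by
    intro r k hP hk hr
    obtain ⟨x, hx, hxr⟩ := elt_of_dvd hP.prime hr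
    refine ⟨x, ⟨hx, ?_⟩, hxr⟩
    have h1 : orderOf (Matrix.GeneralLinearGroup.det x) ∣ r := hxr ▸ orderOf_map_dvd _ x
    have h2 : orderOf (Matrix.GeneralLinearGroup.det x) ∣ Fintype.card F - 1 := by
      have := orderOf_dvd_natCard (Matrix.GeneralLinearGroup.det x)
      rwa [Nat.card_units, Nat.card_eq_fintype_card] at this
    have h3 : ¬ r ∣ Fintype.card F - 1 := by
      intro h
      have h4 := (hP.dvd_iff 1).1 (by rwa [pow_one])
      have := Nat.le_of_dvd one_pos h4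
      omega
    have h4 : orderOf (Matrix.GeneralLinearGroup.det x) = 1 := by
      rcases (Nat.dvd_prime hP.prime).1 h1 with h | h
      · exact h
      · exact absurd (h ▸ h2) h3
    rw [orderOf_eq_one_iff] at h4
    exact h4
  by_contra hcon
  obtain ⟨x5, hx5, ho5⟩ := hdet hP5 (by norm_num) hK5
  obtain ⟨x4, hx4, ho4⟩ := hdet hP4 (by norm_num) hK4
  have hlt : K ⊓ specialLinear (Fin 5) F < specialLinear (Fin 5) F := by
    refine lt_of_le_of_ne inf_le_right fun h => hcon ?_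
    rw [← h]
    exact inf_le_left
  obtain ⟨M, hM, hKM⟩ := H905.exists_isMaximalIn_of_lt hlt
  have hM5 : r5 ∣ Nat.card M := by
    rw [← ho5, ← Subgroup.orderOf_mk x5 (hKM hx5)]
    exact orderOf_dvd_natCard _
  have hM4 : r4 ∣ Nat.card M := by
    rw [← ho4, ← Subgroup.orderOf_mk x4 (hKM hx4)]
    exact orderOf_dvd_natCard _
  have hn : Fintype.card (Fin 5) = 5 := Fintype.card_fin 5
  rcases S5793.result M hM with ⟨W, h0, h1, h⟩ | ⟨-, D, hD, h⟩ | ⟨E, hE, h⟩ | ⟨F₀, r, P, hr, hc, h⟩ | ⟨⟨p, hp, hp', -⟩, -⟩ |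
    ⟨ho, -⟩ | ⟨σ, g, hg, h⟩ | h
  · have hx : x5 ∈ subspaceStabilizer W := (h ▸ hKM hx5 : x5 ∈ subspaceStabilizer W ⊓ _).1
    rcases H304.Ppd.le_finrank_of_mem_stabilizer hP5 ho5 (H304.Ppd.mem_of_subspaceStabilizer hx) with h2 | h2
    · apply h1
      apply Submodule.eq_top_of_finrank_eq
      have := Submodule.finrank_le W
      rw [Module.finrank_fintype_fun_eq_card, hn] at this ⊢
      omega
    · rw [hn] at h2
      exact h0 (Submodule.finrank_eq_zero.1 (by omega))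
  · have h2 : r5 ∣ Nat.card (decompositionStabilizer D) := hM5.trans (Subgroup.card_dvd_of_le (h ▸ inf_le_left))
    rcases H251.GeoCard.decomp hD h5.prime (by rw [Nat.card_eq_fintype_card]; exact hP5.ndvd) h2 with h3 | ⟨i, hi1, hi2, h3⟩
    · omega
    · rw [Nat.card_eq_fintype_card, hP5.dvd_iff] at h3
      have := Nat.le_of_dvd (by omega) h3
      omega
  · rcases ext_dvd' (R := M) Nat.prime_five hP4 (by norm_num) (by rw [hn]; norm_num) hE (h ▸ inf_le_left) hM4 with h2 | h2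
    · omega
    · exact absurd h2 (by norm_num)
  · obtain ⟨f₀, h0, hfr, h0c⟩ := card_sub (by omega) hF F₀ hc
    subst hfr
    obtain ⟨i, hi1, hi2, hi3⟩ := sub_dvd h0 hr.one_lt.le h0c hF h5 (by norm_num)
      (hM5.trans (Subgroup.card_dvd_of_le (h ▸ inf_le_left)))
    have h6 := Nat.le_of_dvd (by omega) hi3
    have := hr.two_le
    rw [hn] at hi2
    omega
  · exact hnp p hp hp'
  · exact hodd ho
  · have h2 := uni_odd (R := M) Nat.prime_two hF h4.prime h4.ord (by norm_num) (by rw [hn]; norm_num) hM4 hg (h ▸ inf_le_left)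
    exact absurd h2 (by decide)
  · obtain ⟨-, p, -, hp, hp', -⟩ := hR M hM h
    exact hnp p hp hp'

end Cfsg.Agent.H688.RG
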