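import Cfsg.Agent.H688.RG.Lin5
import Cfsg.Agent.H926.Sub2
import Cfsg.Agent.H925.Plus10c
import Cfsg.Agent.H377.RowSplit
import Cfsg.Agent.H383.Cov.TenRes

/-!
# S3691, 11.2 (b): isometries of prime order over a subfield (helper688)
-/

set_option autoImplicit false
set_option linter.unusedSectionVars false

namespace Cfsg.Agent.H688.RG

open Cfsg Cfsg.Geo Module Matrix QuadraticMap
open Cfsg.Agent.H728.DghpNum
open Cfsg.Agent.H851.Rl
open Cfsg.Agent.H926 (jmap form0 form0_apply jmap_add jmap_smul jmap_injective ndOn_form0 exists_jmap_coord)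
open Cfsg.Agent.H377 (HasSign)
open Cfsg.Agent.H377.Fpf
open Cfsg.Agent.LieClassical.OrthCore (Nondeg)
open Cfsg.Agent.H182.Cent (Inv SForm perp IsoP NonDeg fixS mem_fixS mem_perp Large resE resE_pow)
open scoped MatrixGroups

/-- an isometry of prime order fixing nothing, dimension 10 -/
theorem fix_eq_bot {F : Type*} [Field F] [Finite F] {V : Type*} [AddCommGroup V] [Module F V] [Finite V]
    {Q : QuadraticForm F V} {x : Module.End F V} {l : ℕ} (h : IsoQ Q x l) (hV : finrank F V = 10)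
    (hm : ∀ j, l ∣ Nat.card F ^ (2 * j) - 1 → 5 ∣ j) : ∀ v, x v = v → v = 0 := by
  intro v hv
  have h1 := h.finrank_Y (n := 5) (m := 5) (by omega) (by norm_num) hm
  have h2 := h.isoP.finrank_add
  have h3 : fixS x = ⊥ := Submodule.finrank_eq_zero.1 (by omega)
  have h4 : v ∈ fixS x := mem_fixS.2 hv
  rw [h3] at h4
  exact (Submodule.mem_bot F).1 h4

/-- the sign -/
theorem sign_of {F : Type*} [Field F] [Finite F] {V : Type*} [AddCommGroup V] [Module F V] [Finite V]
    {Q : QuadraticForm F V} {x : Module.End F V} {l : ℕ} (h : IsoQ Q x l) (hV : finrank F V = 10)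
    (hm : ∀ j, l ∣ Nat.card F ^ (2 * j) - 1 → 5 ∣ j) {ε : ℤ} (hs : HasSign (⇑Q) 5 ε) :
    (l : ℤ) ∣ ε * (Nat.card F : ℤ) ^ 5 - 1 := by
  refine dvd_sub_one hs h.prime x ?_ h.isom 0 (QuadraticMap.map_zero _) (map_zero _) (fix_eq_bot h hV hm)
  intro v
  rw [iterate_eq, h.pow]
  rfl

/-- `ord = 5` and `ord = 10` do not occur together -/
theorem no_both {F : Type*} [Field F] [Finite F] {V : Type*} [AddCommGroup V] [Module F V] [Finite V]
    {Q : QuadraticForm F V} (hV : finrank F V = 10) {x y : Module.End F V} {l s : ℕ} (hx : IsoQ Q x l) (hy : IsoQ Q y s)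
    (hl : Ppd (Nat.card F) 5 l) (hs : Ppd (Nat.card F) 10 s) : False := by
  obtain ⟨ε, hε, hsg⟩ := exists_sign Q hx.nondeg (m := 5) (by omega)
  have h1 := sign_of hx hV (fun j hj => by
    have := (hl.dvd_iff _).1 hj
    exact (Nat.Coprime.dvd_of_dvd_mul_left (by norm_num) this)) hsg
  have h2 := sign_of hy hV (fun j hj => by
    have := (hs.dvd_iff _).1 hj
    omega) hsg
  have hq : 1 ≤ Nat.card F ^ 5 := Nat.one_le_pow _ _ Nat.card_pos
  have h3 : (l : ℤ) ∣ 1 * (Nat.card F : ℤ) ^ 5 - 1 := by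
    have h4 : l ∣ Nat.card F ^ 5 - 1 := (hl.dvd_iff 5).2 dvd_rfl
    have h5 : (l : ℤ) ∣ ((Nat.card F ^ 5 - 1 : ℕ) : ℤ) := Int.natCast_dvd_natCast.2 h4
    rw [Nat.cast_sub hq] at h5
    push_cast at h5
    rwa [one_mul]
  have h6 := sign_unique hx.prime hx.ne_two hε (Or.inl rfl) h1 h3
  subst h6
  have h7 : s ∣ Nat.card F ^ 5 - 1 := by
    apply Int.natCast_dvd_natCast.1
    rw [Nat.cast_sub hq]
    push_cast
    rwa [one_mul] at h2
  have := (hs.dvd_iff 5).1 h7
  omega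

/-- **descent to the subfield** -/
theorem exists_desc {ι : Type} [Fintype ι] [DecidableEq ι] {F : Type*} [Field F] [Fintype F] (h2 : (2 : F) = 0)
    {Q : (ι → F) → F} (hQ : IsNondegenerateQuadraticForm Q) {F₀ : Subfield F} {P : GL ι F} {ζ : F} (hζ : ζ ≠ 0)
    (hR : IsQuadFormRationalStructure (fun v => ζ * Q v) F₀ P) (hne : Nonempty ι) {x : GL ι F} (hx : x ∈ subfieldSubgroup F₀ P)
    (hxQ : ∀ v, Q ((x : Matrix ι ι F) *ᵥ v) = Q v) :
    ∃ x₀ : Module.End F₀ (ι → F₀), ∀ u, jmap F₀ P (x₀ u) = (x : Matrix ι ι F) *ᵥ jmap F₀ P u := by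
  classical
  obtain ⟨c, hc, hA⟩ := H914.mem_subfieldSubgroup_iff.1 hx
  let B : Matrix ι ι F₀ := fun i j => ⟨c * ((P⁻¹ * x * P : GL ι F) : Matrix ι ι F) i j, hA i j⟩
  have hB : ∀ u : ι → F₀, jmap F₀ P (B *ᵥ u) = c • ((x : Matrix ι ι F) *ᵥ jmap F₀ P u) := by
    intro u
    have e1 : (fun i => ((B *ᵥ u) i : F)) = c • (((P⁻¹ * x * P : GL ι F) : Matrix ι ι F) *ᵥ (fun i => (u i : F))) := by
      funext i
      rw [Pi.smul_apply, smul_eq_mul, Matrix.mulVec, Matrix.mulVec, dotProduct, dotProduct, Finset.mul_sum,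
        AddSubmonoidClass.coe_finsetSum]
      refine Finset.sum_congr rfl fun j _ => ?_
      change c * ((P⁻¹ * x * P : GL ι F) : Matrix ι ι F) i j * (u j : F) = _
      ring
    unfold jmap
    rw [e1, Matrix.mulVec_smul, Matrix.mulVec_mulVec, Matrix.mulVec_mulVec, ← Units.val_mul, ← Units.val_mul]
    congr 3
    group
  -- a nonsingular vector
  obtain ⟨u, hu⟩ : ∃ u, form0 hQ hR u ≠ 0 := by
    by_contra hcon
    push Not at hcon
    obtain ⟨v, hv⟩ := exists_ne (0 : ι → F₀)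
    obtain ⟨w, -, hw⟩ := ndOn_form0 hQ hζ hR v Submodule.mem_top hv
    apply hw
    rw [polar, hcon, hcon, hcon]
    ring
  have h3 : (form0 hQ hR (B *ᵥ u) : F) = c ^ 2 * (form0 hQ hR u : F) := by
    rw [form0_apply, form0_apply, hB, hQ.smul, hxQ]
    ring
  have hu' : (form0 hQ hR u : F) ≠ 0 := fun h => hu (Subtype.ext h)
  have h4 : c ^ 2 ∈ F₀ := by
    have : c ^ 2 = (form0 hQ hR (B *ᵥ u) : F) / (form0 hQ hR u : F) := by
      rw [h3]
      field_simp
    rw [this]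
    exact F₀.div_mem (Subtype.mem _) (Subtype.mem _)
  have hsq : ∀ a b : F, a ^ 2 = b ^ 2 → a = b := by
    intro a b hab
    have : (a - b) ^ 2 = 0 := by linear_combination hab + (b ^ 2 - a * b) * h2
    exact sub_eq_zero.1 (pow_eq_zero_iff two_ne_zero |>.1 this)
  have h5 : c ∈ F₀ := by
    have hinj : Function.Injective (fun a : F₀ => a ^ 2) := by
      intro a b hab
      apply Subtype.ext
      exact hsq _ _ (congrArg Subtype.val hab)
    obtain ⟨b, hb⟩ := (Finite.injective_iff_surjective.1 hinj) ⟨c ^ 2, h4⟩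
    have : (b : F) ^ 2 = c ^ 2 := congrArg Subtype.val hb
    rw [← hsq _ _ this]
    exact b.2
  refine ⟨(⟨c, h5⟩ : F₀)⁻¹ • Matrix.toLin' B, fun u => ?_⟩
  rw [LinearMap.smul_apply, Matrix.toLin'_apply, jmap_smul, hB, smul_smul]
  have : (((⟨c, h5⟩ : F₀)⁻¹ : F₀) : F) * c = 1 := inv_mul_cancel₀ hc
  rw [this, one_smul]

/-- the descended isometry -/
theorem exists_isoQ {ι : Type} [Fintype ι] [DecidableEq ι] {F : Type*} [Field F] [Fintype F] (h2 : (2 : F) = 0)
    {Q : (ι → F) → F} (hQ : IsNondegenerateQuadraticForm Q) {F₀ : Subfield F} {P : GL ι F} {ζ : F} (hζ : ζ ≠ 0)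
    (hR : IsQuadFormRationalStructure (fun v => ζ * Q v) F₀ P) (hne : Nonempty ι) {x : GL ι F} (hx : x ∈ subfieldSubgroup F₀ P)
    (hxQ : ∀ v, Q ((x : Matrix ι ι F) *ᵥ v) = Q v) {l : ℕ} (hl : l.Prime) (hl2 : l ≠ 2) (hlx : orderOf x = l) :
    ∃ x₀ : Module.End F₀ (ι → F₀), IsoQ (form0 hQ hR) x₀ l := by
  obtain ⟨x₀, h⟩ := exists_desc h2 hQ hζ hR hne hx hxQ
  have hpow : ∀ (k : ℕ) u, jmap F₀ P ((x₀ ^ k) u) = ((x ^ k : GL ι F) : Matrix ι ι F) *ᵥ jmap F₀ P u := by
    intro k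
    induction k with
    | zero => intro u; simp
    | succ k ih =>
      intro u
      rw [pow_succ, Module.End.mul_apply, ih, h, Matrix.mulVec_mulVec, ← Units.val_mul, ← pow_succ]
  refine ⟨x₀, ?_, ?_, hl, hl2, ?_, ?_, ?_⟩
  · intro v hv
    by_contra hv0
    obtain ⟨w, -, hw⟩ := ndOn_form0 hQ hζ hR v Submodule.mem_top hv0
    exact hw (hv w)
  · intro v
    apply Subtype.ext
    rw [form0_apply, form0_apply, h, hxQ]
  · apply LinearMap.ext
    intro u
    apply jmap_injective F₀ P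
    rw [hpow, ← hlx, pow_orderOf_eq_one]
    simp
  · intro h0
    have h4 : (l : F) = 0 := by
      have := map_natCast F₀.subtype l
      rw [h0, map_zero] at this
      exact this.symm
    obtain ⟨k, hk⟩ := hl.odd_of_ne_two hl2
    rw [hk] at h4
    push_cast at h4
    rw [h2, zero_mul, zero_add] at h4
    exact one_ne_zero h4
  · intro h1
    apply hl.one_lt.ne'
    rw [← hlx, orderOf_eq_one_iff]
    apply Units.ext
    have hfix : ∀ v, (x : Matrix ι ι F) *ᵥ v = v := by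
      intro v
      have hb : ∀ i, (x : Matrix ι ι F) *ᵥ jmap F₀ P (Pi.single i 1) = jmap F₀ P (Pi.single i 1) := by
        intro i
        rw [← h, h1]
        rfl
      have e := exists_jmap_coord F₀ P v
      rw [e, Matrix.mulVec_sum]
      refine Finset.sum_congr rfl fun i _ => ?_
      rw [Matrix.mulVec_smul, hb]
    apply (Matrix.toLin' (R := F)).injective
    apply LinearMap.ext
    intro v
    rw [Matrix.toLin'_apply, hfix, Units.val_one, Matrix.toLin'_one, LinearMap.id_apply]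

end Cfsg.Agent.H688.RG
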