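import Cfsg.Agent.H688.RG.Irr

/-!
# S3691, 11.2 (b): the reducible case (helper688)
-/

set_option autoImplicit false
set_option linter.unusedSectionVars false

namespace Cfsg.Agent.H688.RG

open Cfsg Cfsg.Geo Module Matrix QuadraticMap
open Cfsg.Agent.H728.DghpNum
open Cfsg.Agent.H851.Rl
open Cfsg.Agent.H925 (qf coe_qf nondeg_qf)
open Cfsg.Agent.H377 (HasSign)
open Cfsg.Agent.H377.Fpf
open Cfsg.Agent.LieClassical.OrthCore (Nondeg)
open Cfsg.Agent.H182.Cent (Inv SForm perp IsoP NonDeg fixS mem_fixS mem_perp mem_perp' inv_perp Large resE resE_pow)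
open scoped MatrixGroups

variable {F : Type} [Field F] [Fintype F] {f : ℕ} {Q : (Fin 10 → F) → F} {K : Subgroup (GL (Fin 10) F)}

theorem isoQ_of (h2 : (2 : F) = 0) (hQ : IsNondegenerateQuadraticForm Q) {x : GL (Fin 10) F}
    (hxQ : ∀ v, Q ((x : Matrix (Fin 10) (Fin 10) F) *ᵥ v) = Q v) {l : ℕ} (hl : l.Prime) (hl2 : l ≠ 2) (hlx : orderOf x = l) :
    IsoQ (qf hQ) (Matrix.toLin' (x : Matrix (Fin 10) (Fin 10) F)) l where
  nondeg := nondeg_qf hQ
  isom v := by rw [Matrix.toLin'_apply]; exact hxQ v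
  prime := hl
  ne_two := hl2
  pow := by
    rw [← H251.GeoCard.toLin_pow, ← hlx, pow_orderOf_eq_one, Units.val_one, Matrix.toLin'_one]
    rfl
  char := by
    intro h4
    obtain ⟨k, hk⟩ := hl.odd_of_ne_two hl2
    rw [hk] at h4
    push_cast at h4
    rw [h2, zero_mul, zero_add] at h4
    exact one_ne_zero h4
  ne_one := by
    intro h1
    apply hl.one_lt.ne'
    rw [← hlx, orderOf_eq_one_iff]
    apply Units.ext
    apply (Matrix.toLin' (R := F)).injective
    rw [h1, Units.val_one, Matrix.toLin'_one]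
    rfl

/-- the subspace of singular vectors of a totally isotropic subspace, characteristic two -/
def sing (_h2 : (2 : F) = 0) (hQ : IsNondegenerateQuadraticForm Q) (W : Submodule F (Fin 10 → F))
    (hW : ∀ v ∈ W, ∀ w ∈ W, polar Q v w = 0) : Submodule F (Fin 10 → F) where
  carrier := {w | w ∈ W ∧ Q w = 0}
  zero_mem' := ⟨W.zero_mem, by have := hQ.smul 0 0; simpa using this⟩
  add_mem' := fun {a b} ha hb => ⟨W.add_mem ha.1 hb.1, by
    have h1 := hW a ha.1 b hb.1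
    rw [polar, ha.2, hb.2, sub_zero, sub_zero] at h1
    exact h1⟩
  smul_mem' := fun c v hv => ⟨W.smul_mem c hv.1, by rw [hQ.smul, hv.2, mul_zero]⟩

theorem exists_sqrt (h2 : (2 : F) = 0) (a : F) : ∃ b, b ^ 2 = a := by
  have hinj : Function.Injective (fun a : F => a ^ 2) := by
    intro a b hab
    have hab' : a ^ 2 = b ^ 2 := hab
    have : (a - b) ^ 2 = 0 := by linear_combination hab' + (b ^ 2 - a * b) * h2
    exact sub_eq_zero.1 (pow_eq_zero_iff two_ne_zero |>.1 this)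
  exact (Finite.injective_iff_surjective.1 hinj) a

theorem finrank_sing (h2 : (2 : F) = 0) (hQ : IsNondegenerateQuadraticForm Q) (W : Submodule F (Fin 10 → F))
    (hW : ∀ v ∈ W, ∀ w ∈ W, polar Q v w = 0) (hne : sing h2 hQ W hW ≠ W) :
    finrank F W ≤ finrank F (sing h2 hQ W hW) + 1 := by
  have hle : sing h2 hQ W hW ≤ W := fun w hw => hw.1
  obtain ⟨w, hw, hw'⟩ : ∃ w ∈ W, w ∉ sing h2 hQ W hW := by
    by_contra hcon
    push Not at hcon
    exact hne (le_antisymm hle hcon)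
  have hQw : Q w ≠ 0 := fun h => hw' ⟨hw, h⟩
  have h1 : W ≤ sing h2 hQ W hW ⊔ (F ∙ w) := by
    intro v hv
    obtain ⟨b, hb⟩ := exists_sqrt h2 (Q v / Q w)
    have h3 : v - b • w ∈ sing h2 hQ W hW := by
      refine ⟨W.sub_mem hv (W.smul_mem _ hw), ?_⟩
      have h4 := hW v hv (-(b • w)) (W.neg_mem (W.smul_mem _ hw))
      rw [polar, ← sub_eq_add_neg, sub_sub, sub_eq_zero] at h4
      rw [h4]
      have h5 : Q (-(b • w)) = b ^ 2 * Q w := by
        rw [← neg_smul, hQ.smul]; ring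
      rw [h5, hb]
      field_simp
      linear_combination Q v * h2
    have h6 : v = (v - b • w) + b • w := by abel
    rw [h6]
    exact Submodule.add_mem_sup h3 (Submodule.smul_mem _ _ (Submodule.mem_span_singleton_self w))
  have h7 := (Submodule.finrank_mono h1).trans (Submodule.finrank_add_le_finrank_add_finrank _ _)
  have h8 : finrank F (F ∙ w) ≤ 1 := by
    have := finrank_span_le_card (R := F) ({w} : Set (Fin 10 → F))
    simpa using this
  omega

/-- the element of order `r₅` -/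
theorem Dat.y5 (h : Dat f Q K) : ∃ y ∈ K, ∃ l, Ppd (Fintype.card F) 5 l ∧
    IsoQ (qf h.hQ) (Matrix.toLin' (y : Matrix (Fin 10) (Fin 10) F)) l ∧
    ∀ v, Matrix.toLin' (y : Matrix (Fin 10) (Fin 10) F) v = v → v = 0 := by
  have h2 := two_eq_zero (by have := h.hf; omega) h.hF
  have hF := h.hF
  have hf := h.hf
  obtain ⟨r5, h5⟩ := exists_two (f := f) (k := 5) (by omega) (by omega)
  have hP5 : Ppd (Fintype.card F) 5 r5 := hF ▸ h5.ppd (by omega) (by norm_num)
  have hg5 := h5.gt (by omega) (by norm_num)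
  obtain ⟨y, hy, hyl⟩ := elt_of_dvd h5.prime (h.r5 r5 h5)
  have hI := isoQ_of h2 h.hQ (h.iso (h.lt.le hy)) h5.prime (by omega) hyl
  have hV : finrank F (Fin 10 → F) = 10 := by rw [Module.finrank_fintype_fun_eq_card, Fintype.card_fin]
  exact ⟨y, hy, r5, hP5, hI, fix_eq_bot hI hV (fun j hj => by
    rw [Nat.card_eq_fintype_card] at hj
    have := (hP5.dvd_iff _).1 hj
    exact (Nat.Coprime.dvd_of_dvd_mul_left (by norm_num) this))⟩

/-- **the invariant subspaces** -/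
theorem Dat.dim5 (h : Dat f Q K) {W : Submodule F (Fin 10 → F)}
    (hW : ∀ z ∈ K, ∀ w ∈ W, (z : Matrix (Fin 10) (Fin 10) F) *ᵥ w ∈ W) : 5 ∣ finrank F W := by
  obtain ⟨y, hy, l, hl, hI, hfix⟩ := h.y5
  have h6 := H182.Cent.dvd_pow_sub_one (Z := W) hl.prime hI.pow (fun w hw => by
    rw [Matrix.toLin'_apply]
    exact hW y hy w hw) (fun z _ hz => hfix z hz)
  rw [Nat.card_eq_fintype_card, hl.dvd_iff] at h6
  exact h6

theorem Dat.inv_polar (h : Dat f Q K) {z : GL (Fin 10) F} (hz : z ∈ K) (v w : Fin 10 → F) :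
    polar Q ((z : Matrix (Fin 10) (Fin 10) F) *ᵥ v) w =
      polar Q v (((z⁻¹ : GL (Fin 10) F) : Matrix (Fin 10) (Fin 10) F) *ᵥ w) := by
  have e : w = (z : Matrix (Fin 10) (Fin 10) F) *ᵥ (((z⁻¹ : GL (Fin 10) F) : Matrix (Fin 10) (Fin 10) F) *ᵥ w) := by
    rw [Matrix.mulVec_mulVec, ← Units.val_mul, mul_inv_cancel, Units.val_one, Matrix.one_mulVec]
  conv_lhs => rw [e]
  rw [polar, polar, ← Matrix.mulVec_add, h.iso (h.lt.le hz), h.iso (h.lt.le hz), h.iso (h.lt.le hz)]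

theorem Dat.isot (h : Dat f Q K) {W : Submodule F (Fin 10 → F)}
    (hW : ∀ z ∈ K, ∀ w ∈ W, (z : Matrix (Fin 10) (Fin 10) F) *ᵥ w ∈ W) (h5W : finrank F W = 5) :
    ∀ v ∈ W, ∀ w ∈ W, polar Q v w = 0 := by
  obtain ⟨y, hy, l, hl, hI, hfix⟩ := h.y5
  have h1 := h.dim5 (W := W ⊓ perp (sform (qf h.hQ)) W) (fun z hz w hw => ⟨hW z hz w hw.1, by
    intro w' hw'
    rw [coe_qf, h.inv_polar hz]
    exact hw.2 _ (hW _ (K.inv_mem hz) _ hw')⟩)
  have h2 := Submodule.finrank_mono (inf_le_left : W ⊓ perp (sform (qf h.hQ)) W ≤ W)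
  have h3 : finrank F (W ⊓ perp (sform (qf h.hQ)) W : Submodule F (Fin 10 → F)) = 0 ∨
      finrank F (W ⊓ perp (sform (qf h.hQ)) W : Submodule F (Fin 10 → F)) = 5 := by omega
  rcases h3 with h3 | h3
  · exfalso
    have h4 := Submodule.finrank_eq_zero.1 h3
    have h5 := hI.even_block (Z := W) (fun w hw => by
      rw [Matrix.toLin'_apply]
      exact hW y hy w hw) (fun z hz h6 => by
        have : z ∈ W ⊓ perp (sform (qf h.hQ)) W := ⟨hz, h6⟩
        rw [h4] at this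
        exact (Submodule.mem_bot F).1 this) (fun z _ hz => hfix z hz)
    rw [h5W] at h5
    exact absurd h5 (by decide)
  · have h4 : W ⊓ perp (sform (qf h.hQ)) W = W := Submodule.eq_of_le_of_finrank_eq inf_le_left (by omega)
    intro v hv w hw
    rw [← h4] at hv
    exact hv.2 w hw

theorem Dat.ts (h : Dat f Q K) {W : Submodule F (Fin 10 → F)}
    (hW : ∀ z ∈ K, ∀ w ∈ W, (z : Matrix (Fin 10) (Fin 10) F) *ᵥ w ∈ W) (h5W : finrank F W = 5) :
    ∀ v ∈ W, Q v = 0 := by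
  have h2 := two_eq_zero (by have := h.hf; omega) h.hF
  have h1 := h.isot hW h5W
  by_contra hcon
  have hne : sing h2 h.hQ W h1 ≠ W := by
    intro he
    apply hcon
    intro v hv
    rw [← he] at hv
    exact hv.2
  have h3 := finrank_sing h2 h.hQ W h1 hne
  have h4 := h.dim5 (W := sing h2 h.hQ W h1) (fun z hz w hw => ⟨hW z hz w hw.1, by
    rw [h.iso (h.lt.le hz)]; exact hw.2⟩)
  have hle : sing h2 h.hQ W h1 ≤ W := fun w hw => hw.1
  have h5 := Submodule.finrank_mono hle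
  exact hne (Submodule.eq_of_le_of_finrank_eq hle (by omega))

theorem Dat.perp_eq (h : Dat f Q K) {W : Submodule F (Fin 10 → F)}
    (hW : ∀ z ∈ K, ∀ w ∈ W, (z : Matrix (Fin 10) (Fin 10) F) *ᵥ w ∈ W) (h5W : finrank F W = 5)
    {v : Fin 10 → F} (hv : ∀ w ∈ W, polar Q v w = 0) : v ∈ W := by
  have h1 := h.isot hW h5W
  have hnd : (polarBilin (qf h.hQ)).Nondegenerate :=
    LieClassical.OmegaReindex.nondegenerate_of_left _ (nondeg_qf h.hQ)
  have h2 := LinearMap.BilinForm.finrank_orthogonal hnd W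
  rw [h5W, Module.finrank_fintype_fun_eq_card, Fintype.card_fin] at h2
  have h3 : W ≤ LinearMap.BilinForm.orthogonal (polarBilin (qf h.hQ)) W := by
    intro w hw
    rw [LinearMap.BilinForm.mem_orthogonal_iff]
    intro w' hw'
    exact h1 w' hw' w hw
  have h4 := Submodule.eq_of_le_of_finrank_eq h3 (by omega)
  rw [h4, LinearMap.BilinForm.mem_orthogonal_iff]
  intro w hw
  have := hv w hw
  rw [polar_comm] at this
  exact this

/-- the action on an invariant subspace -/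
def resHom (W : Submodule F (Fin 10 → F))
    (hW : ∀ z ∈ K, ∀ w ∈ W, (z : Matrix (Fin 10) (Fin 10) F) *ᵥ w ∈ W) : K →* Module.End F W where
  toFun g := (Matrix.toLin' ((g : GL (Fin 10) F) : Matrix (Fin 10) (Fin 10) F)).restrict (p := W) (q := W)
    (fun w hw => by rw [Matrix.toLin'_apply]; exact hW g g.2 w hw)
  map_one' := by
    ext w
    simp
  map_mul' a b := by
    apply LinearMap.ext
    intro w
    apply Subtype.ext
    simp [LinearMap.restrict_apply, Matrix.toLin'_apply, Matrix.mulVec_mulVec]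

theorem resHom_apply (W : Submodule F (Fin 10 → F))
    (hW : ∀ z ∈ K, ∀ w ∈ W, (z : Matrix (Fin 10) (Fin 10) F) *ᵥ w ∈ W) (g : K) (w : W) :
    ((resHom W hW g w : W) : Fin 10 → F) = ((g : GL (Fin 10) F) : Matrix (Fin 10) (Fin 10) F) *ᵥ (w : Fin 10 → F) := by
  rw [← Matrix.toLin'_apply]
  rfl

theorem Dat.ker (h : Dat f Q K) {W : Submodule F (Fin 10 → F)}
    (hW : ∀ z ∈ K, ∀ w ∈ W, (z : Matrix (Fin 10) (Fin 10) F) *ᵥ w ∈ W) (h5W : finrank F W = 5) {g : GL (Fin 10) F}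
    (hg : g ∈ K) (hgW : ∀ w ∈ W, (g : Matrix (Fin 10) (Fin 10) F) *ᵥ w = w) : g ^ 2 = 1 := by
  have h2 := two_eq_zero (by have := h.hf; omega) h.hF
  have hginv : ∀ w ∈ W, ((g⁻¹ : GL (Fin 10) F) : Matrix (Fin 10) (Fin 10) F) *ᵥ w = w := by
    intro w hw
    conv_lhs => rw [← hgW w hw]
    rw [Matrix.mulVec_mulVec, ← Units.val_mul, inv_mul_cancel, Units.val_one, Matrix.one_mulVec]
  have h1 : ∀ v, (g : Matrix (Fin 10) (Fin 10) F) *ᵥ v - v ∈ W := by
    intro v
    apply h.perp_eq hW h5W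
    intro w hw
    have e1 := polar_sub_left (qf h.hQ) ((g : Matrix (Fin 10) (Fin 10) F) *ᵥ v) v w
    rw [coe_qf] at e1
    rw [e1, h.inv_polar hg, hginv w hw, sub_self]
  apply Units.ext
  apply (Matrix.toLin' (R := F)).injective
  apply LinearMap.ext
  intro v
  rw [Units.val_one, Matrix.toLin'_one, LinearMap.id_apply, Matrix.toLin'_apply, pow_two, Units.val_mul,
    ← Matrix.mulVec_mulVec]
  have h3 := hgW _ (h1 v)
  rw [Matrix.mulVec_sub] at h3
  have h4 : (g : Matrix (Fin 10) (Fin 10) F) *ᵥ ((g : Matrix (Fin 10) (Fin 10) F) *ᵥ v) =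
      (2 : F) • ((g : Matrix (Fin 10) (Fin 10) F) *ᵥ v) - v := by
    rw [two_smul]
    linear_combination (exp := 1) h3
  rw [h4, h2, zero_smul, zero_sub]
  have h5 : (2 : F) • v = 0 := by rw [h2, zero_smul]
  rw [two_smul] at h5
  exact (eq_neg_of_add_eq_zero_left h5).symm

theorem card_sl5 {q : ℕ} (hq : 2 ≤ q) (hF : Fintype.card F = q) :
    q ^ 8 * ((q ^ 5 - 1) * (q ^ 4 - 1)) < Nat.card (specialLinear (Fin 5) F) := by
  have h1 : Nat.card (GL (Fin 5) F) ≤ Nat.card (specialLinear (Fin 5) F) * (q - 1) := by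
    have h2 := Subgroup.card_mul_index (Matrix.GeneralLinearGroup.det : GL (Fin 5) F →* Fˣ).ker
    rw [Subgroup.index_ker] at h2
    rw [← h2]
    refine Nat.mul_le_mul le_rfl ?_
    have h3 := Subgroup.card_le_card_group (Matrix.GeneralLinearGroup.det : GL (Fin 5) F →* Fˣ).range
    rwa [Nat.card_units, Nat.card_eq_fintype_card (α := F), hF] at h3
  have h4 : Nat.card (GL (Fin 5) F) = q ^ 8 * ((q ^ 5 - 1) * (q ^ 4 - 1)) * (q ^ 2 * (q ^ 3 - 1) * (q ^ 2 - 1)) * (q - 1) := by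
    rw [Matrix.card_GL_field, hF]
    simp only [Fin.prod_univ_succ, Fin.val_zero, Fin.val_succ, Finset.univ_eq_empty, Finset.prod_empty, pow_zero]
    have e1 : q ^ 5 - q ^ 1 = q * (q ^ 4 - 1) := by rw [Nat.mul_sub]; congr 1 <;> ring
    have e2 : q ^ 5 - q ^ 2 = q ^ 2 * (q ^ 3 - 1) := by rw [Nat.mul_sub]; congr 1 <;> ring
    have e3 : q ^ 5 - q ^ 3 = q ^ 3 * (q ^ 2 - 1) := by rw [Nat.mul_sub]; congr 1 <;> ring
    have e4 : q ^ 5 - q ^ 4 = q ^ 4 * (q - 1) := by rw [Nat.mul_sub]; congr 1 <;> ring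
    norm_num
    rw [show q ^ 5 - q = q * (q ^ 4 - 1) by rw [← e1, pow_one], e2, e3, e4]
    ring
  have h5 : 0 < q - 1 := by omega
  have h6 : 1 < q ^ 2 * (q ^ 3 - 1) * (q ^ 2 - 1) := by
    have h7 : 2 ^ 2 ≤ q ^ 2 := Nat.pow_le_pow_left hq 2
    have h8 : 2 ^ 3 ≤ q ^ 3 := Nat.pow_le_pow_left hq 3
    have h9 : 1 ≤ q ^ 3 - 1 := by omega
    have h10 : 1 ≤ q ^ 2 - 1 := by omega
    calc 1 < q ^ 2 := by omega
      _ = q ^ 2 * 1 * 1 := by ring
      _ ≤ q ^ 2 * (q ^ 3 - 1) * (q ^ 2 - 1) := by gcongr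
  have h11 : 0 < q ^ 8 * ((q ^ 5 - 1) * (q ^ 4 - 1)) := by
    have h12 : 2 ^ 5 ≤ q ^ 5 := Nat.pow_le_pow_left hq 5
    have h13 : 2 ^ 4 ≤ q ^ 4 := Nat.pow_le_pow_left hq 4
    have h14 : 0 < q ^ 5 - 1 := by omega
    have h15 : 0 < q ^ 4 - 1 := by omega
    have h16 : 0 < q ^ 8 := by positivity
    positivity
  rw [h4] at h1
  have h17 := Nat.le_of_mul_le_mul_right h1 h5
  nlinarith

/-- **the reducible case** -/
theorem Dat.red (hS : S5794Stmt) (h : Dat f Q K) {W : Submodule F (Fin 10 → F)}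
    (hW : ∀ z ∈ K, ∀ w ∈ W, (z : Matrix (Fin 10) (Fin 10) F) *ᵥ w ∈ W) (h5W : finrank F W = 5) : False := by
  classical
  have hf := h.hf
  have hF := h.hF
  let b : Basis (Fin 5) F W := finBasisOfFinrankEq F W h5W
  let ρ : K →* GL (Fin 5) F := (((LinearMap.toMatrixAlgEquiv b).toMulEquiv.toMonoidHom).comp (resHom W hW)).toHomUnits
  have hρ : ∀ g : K, ρ g = 1 → (g : GL (Fin 10) F) ^ 2 = 1 := by
    intro g hg
    have h1 : LinearMap.toMatrixAlgEquiv b (resHom W hW g) = 1 := congrArg Units.val hg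
    have h2 : resHom W hW g = 1 := by
      rw [← map_one (LinearMap.toMatrixAlgEquiv b)] at h1
      exact (LinearMap.toMatrixAlgEquiv b).injective h1
    refine h.ker hW h5W g.2 fun w hw => ?_
    rw [← resHom_apply W hW g ⟨w, hw⟩, h2]
    rfl
  have hodd : ∀ l, l.Prime → l ≠ 2 → l ∣ Nat.card K → l ∣ Nat.card ρ.range := by
    intro l hl hl2 hd
    have := Fact.mk hl
    obtain ⟨x, hx⟩ := exists_prime_orderOf_dvd_card' (G := K) l hd
    have h1 : orderOf (ρ x) ∣ l := hx ▸ orderOf_map_dvd ρ x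
    rcases (Nat.dvd_prime hl).1 h1 with h2 | h2
    · exfalso
      rw [orderOf_eq_one_iff] at h2
      have h3 := hρ x h2
      have h4 : x ^ 2 = 1 := Subtype.ext h3
      have h5 := orderOf_dvd_of_pow_eq_one h4
      rw [hx] at h5
      exact hl2 ((Nat.prime_dvd_prime_iff_eq hl Nat.prime_two).1 h5)
    · have h3 : ρ x ∈ ρ.range := ⟨x, rfl⟩
      rw [← h2, ← Subgroup.orderOf_mk (ρ x) h3]
      exact orderOf_dvd_natCard _
  obtain ⟨r5, h5⟩ := exists_two (f := f) (k := 5) (by omega) (by omega)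
  obtain ⟨r4, h4⟩ := exists_two (f := f) (k := 4) (by omega) (by omega)
  have hg5 := h5.gt (by omega) (by norm_num)
  have hg4 := h4.gt (by omega) (by norm_num)
  have hle := lin5 hS hf hF h5 h4 (hodd r5 h5.prime (by omega) (h.r5 r5 h5)) (hodd r4 h4.prime (by omega) (h.r4 r4 h4))
  have h6 : Nat.card (specialLinear (Fin 5) F) ≤ Nat.card K :=
    (Nat.card_le_card_of_injective _ (Subgroup.inclusion_injective hle)).trans
      (Nat.card_le_card_of_surjective ρ.rangeRestrict ρ.rangeRestrict_surjective)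
  obtain ⟨c, hc1, hc2⟩ := h.card
  have h7 := card_sl5 (F := F) (q := 2 ^ f) (by
    calc 2 = 2 ^ 1 := by norm_num
      _ ≤ 2 ^ f := Nat.pow_le_pow_right (by norm_num) (by omega)) hF
  have h8 : 0 < c := by
    rcases Nat.eq_zero_or_pos c with h0 | h0
    · exfalso
      rw [h0, mul_zero] at hc1
      have h12 : 2 ^ 3 ≤ 2 ^ f := Nat.pow_le_pow_right (by norm_num) hf
      have h13 : 8 ^ 5 ≤ (2 ^ f) ^ 5 := Nat.pow_le_pow_left (by omega) 5
      have h14 : 8 ^ 4 ≤ (2 ^ f) ^ 4 := Nat.pow_le_pow_left (by omega) 4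
      have h15 : 0 < (2 ^ f) ^ 5 - 1 := by omega
      have h16 : 0 < (2 ^ f) ^ 4 - 1 := by omega
      have h17 : 0 < (2 ^ f) ^ 8 * (((2 ^ f) ^ 5 - 1) * ((2 ^ f) ^ 4 - 1)) := by positivity
      omega
    · exact h0
  have h9 : Nat.card K ≤ Nat.card K * c := Nat.le_mul_of_pos_right _ h8
  omega

/-- **11.2 (b) in matrices** -/
theorem Dat.false (hR : H383.Cov.Ten.S5848Stmt) (hS : S5794Stmt) (h : Dat f Q K) : False := by
  by_cases hirr : ActsIrreducibly (matrixSet K)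
  · exact h.irr hR hirr
  · unfold ActsIrreducibly at hirr
    push Not at hirr
    obtain ⟨W, hW, h0, h1⟩ := hirr
    have hW' : ∀ z ∈ K, ∀ w ∈ W, (z : Matrix (Fin 10) (Fin 10) F) *ᵥ w ∈ W := by
      intro z hz w hw
      exact hW _ ⟨z, hz, rfl⟩ ⟨w, hw, Matrix.toLin'_apply _ _⟩
    refine h.red hS hW' ?_
    have h5 := h.dim5 hW'
    have h2 := Submodule.finrank_le W
    rw [Module.finrank_fintype_fun_eq_card, Fintype.card_fin] at h2
    have h3 : finrank F W ≠ 0 := fun h => h0 (Submodule.finrank_eq_zero.1 h)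
    have h4 : finrank F W ≠ 10 := by
      intro h
      apply h1
      apply Submodule.eq_top_of_finrank_eq
      rw [h, Module.finrank_fintype_fun_eq_card, Fintype.card_fin]
    omega

end Cfsg.Agent.H688.RG
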